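import Cfsg.Agent.LAY.BVec

/-! Project LAY, the Baby Monster: in a group of Monster type every square root of a `2A`-involution is a product of
two `2A`-involutions. -/

set_option autoImplicit false

namespace Cfsg.Agent.LAY.BV

open Subgroup H15 H38.MT H97
open Cfsg.Agent.H14 (idx bits enc)
open scoped Pointwise

variable {G : Type*} [Group G] {s z z' g g' : G} {Q Q' : Subgroup G}
  {π : centralizer ({z} : Set G) →* Spor.Co1} {R : G → leechLattice → Prop}
  {π' : centralizer ({z'} : Set G) →* Spor.Co1} {R' : G → leechLattice → Prop}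

/-- an involution which is not conjugate to `s` -/
def PA (s y : G) : Prop := y * y = 1 ∧ y ≠ 1 ∧ ¬ IsConj s y

theorem PA.conj {y : G} (h : PA s y) (c : G) : PA s (c * y * c⁻¹) :=
  ⟨by rw [conj_mul, h.1]; simp, by simpa using h.2.1, fun e => h.2.2 (e.trans (isConj_iff.2 ⟨c, rfl⟩).symm)⟩

/-- a product of two such involutions -/
def Fac (s x : G) : Prop := ∃ d e, x = d * e ∧ PA s d ∧ PA s e

theorem Fac.conj {x : G} (c : G) (h : Fac s (c * x * c⁻¹)) : Fac s x := by
  obtain ⟨d, e, h1, h2, h3⟩ := h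
  exact ⟨_, _, by rw [conj_mul, ← h1]; group, h2.conj c⁻¹, h3.conj c⁻¹⟩

theorem sign_pm {c : Finset GolayPt} {hc : IsCw c} (h : signC c hc = 1 ∨ signC c hc = negC) :
    c.card = 0 ∨ c.card = 24 := by
  have k : ∀ i, (if i ∈ c then -8 else 8 : ℤ) = ((signC c hc • e8 i : leechLattice) : Vec) i := fun i => by
    rw [signC_apply, e8_val, Pi.single_eq_same]
  refine h.imp (fun e => Finset.card_eq_zero.2 (Finset.eq_empty_of_forall_notMem fun i hi => ?_)) fun e => ?_
  · have := k i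
    rw [e, one_smul, e8_val, Pi.single_eq_same, if_pos hi] at this
    omega
  · rw [Finset.eq_univ_of_forall (s := c) fun i => by_contra fun hi => ?_, Finset.card_univ, card_pt]
    have := k i
    rw [e, negC_smul, AddSubgroup.coe_neg, Pi.neg_apply, e8_val, Pi.single_eq_same, if_neg hi] at this
    omega

theorem card_of_mem (M : MD z Q π R) {q : G} {c : Finset GolayPt} {hc : IsCw c} (h : Ov π q (signC c hc))
    (hq : q ∈ Q) : c.card = 0 ∨ c.card = 24 :=
  sign_pm (by simpa using co1_eq_iff.1 ((ov_one M hq).2.trans h.2.symm))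

theorem mem_of_card (M : MD z Q π R) {q : G} {c : Finset GolayPt} {hc : IsCw c} (h : Ov π q (signC c hc))
    (hq : c.card = 0 ∨ c.card = 24) : q ∈ Q := by
  rcases hq with e | e
  · obtain rfl := Finset.card_eq_zero.1 e
    exact Ov.one M (signC_empty ▸ h)
  · obtain rfl := Finset.eq_univ_of_card c (e.trans card_pt.symm)
    exact Ov.one M (negC_sq ▸ h.neg)

theorem std (M : MD z Q π R) {r : G} {c : Finset GolayPt} {hc : IsCw c} (h : Ov π r (signC c hc))
    (h8 : c.card = 8 ∨ c.card = 16) : ∃ y, y * z = z * y ∧ Ov π (y * r * y⁻¹) k0 := by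
  have A : ∀ c hc, Ov π r (signC c hc) → c.card = 8 → ∃ y, y * z = z * y ∧ Ov π (y * r * y⁻¹) k0 := fun c hc h h8 => by
    obtain ⟨σ, h1, h2⟩ := H14.m24_octad_transitive (mem_octads hc h8) (mem_octads cw_O0 card_O0)
    obtain ⟨y, hy⟩ := ov_lift M (permC ⟨σ, h1⟩)
    refine ⟨y, hy.comm, ?_⟩
    have := hy.conj h
    rw [permC_conj_signC] at this
    convert this using 2
    exact h2.symm
  refine h8.elim (A c hc h) fun e => A _ hc.compl ?_ (by rw [card_compl', e])
  rw [H26.CoInv.signC_compl, negC_comm]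
  exact h.neg

theorem norm_two {o : Finset GolayPt} (h8 : o.card = 8) : sqNorm (vTwo o) = 32 := by
  rw [sqNorm, Finset.sum_congr rfl (g := fun i => if i ∈ o then 4 else 0) fun i _ => by
    simp only [vTwo]; split_ifs <;> rfl, Finset.sum_ite_mem, Finset.univ_inter, Finset.sum_const, h8]
  rfl

variable [Finite G]

theorem pa_min (M : MD z Q π R) (hs : IsConj s z) {q : G} {w : leechLattice} (h : R q w)
    (hw : sqNorm (w : Vec) = 32) : PA s q := by
  have n := M.ne_of_short h (by omega) (by omega)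
  refine ⟨(M.sq_iff h).2 (by omega), n.1, fun e => ?_⟩
  obtain ⟨g, rfl⟩ := isConj_iff.1 (hs.symm.trans e)
  obtain ⟨v, hv, h64⟩ := M.type_four (M.mem h) n.2
  have := M.norm_eq h hv (by omega) (by omega) (by omega) (by omega)
  omega

/-- one half of a pair of `2B`-involutions in standard position -/
structure Hf (z g z' : G) (Q Q' : Subgroup G) (R : G → leechLattice → Prop) : Prop where
  e : g * z * g⁻¹ = z'
  q : cjs g Q = Q'
  h8 : R z' (e8 none)

variable (M : MD z Q π R) (H : Hf z g z' Q Q' R) (hs : IsConj s z)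
include M H

theorem Hf.r (e : Finset GolayPt) (he : IsCw e) : ∃ r ∈ Q', Ov π r (signC e he) :=
  H.q ▸ exists_r M (H.e ▸ H.h8) e he

theorem Hf.comm {x : G} {v : leechLattice} (hx : R x v) : x * z' = z' * x ↔ (v : Vec) none % 2 = 0 :=
  H.e ▸ comm_s M (H.e ▸ H.h8) hx

theorem Hf.const {q : G} {v : leechLattice} (hq : R q v) {b : ℤ} (h4 : ∀ i, ((v : Vec) i - 2 * b) % 4 = 0) : q ∈ Q' :=
  H.q ▸ mem_of_const M (H.e ▸ H.h8) hq h4

theorem Hf.sign {r : G} (h1 : r ∈ Q') (h2 : r * z = z * r) : ∃ e he, Ov π r (signC e he) := by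
  have h3 := mem_centralizer_singleton_iff.2 h2
  obtain ⟨k, hk⟩ := ov_ex π h3
  have h8 := H.e ▸ H.h8
  have : k ∈ pb π (cjs g Q ⊓ centralizer ({z} : Set G)) := mem_pb.2 ⟨⟨r, h3⟩, ⟨H.q ▸ h1, h3⟩, hk.2⟩
  obtain ⟨e, he, rfl⟩ := mem_signG.1 ((M.pb_A (M.mem h8) (s_ne M h8) h8).1 ▸ this)
  exact ⟨e, he, hk⟩

include hs in
theorem Hf.two {a : G} (h1 : a ∈ Q) (h2 : PA s a) : ∃ u, R a u ∧ sqNorm (u : Vec) = 32 :=
  have h8 := H.e ▸ H.h8
  M.type_two (M.mem h8) (s_ne M h8) h1 h2.2.1 h2.1 fun e => h2.2.2 (hs.trans e)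

include hs in
theorem oct0 {x r : G} (hr : PA s r) (ho : Ov π r k0) (hq : x * r⁻¹ ∈ Q) (ha : PA s (x * x)) : Fac s x := by
  obtain ⟨v, hv⟩ := M.ex _ hq
  have h1 := M.mul hv (ho.lab M hv)
  rw [show x * r⁻¹ * (r * (x * r⁻¹) * r⁻¹) = x * x * (r * r)⁻¹ by group, hr.1, inv_one, mul_one] at h1
  obtain ⟨u, hu, h32⟩ := H.two M hs (M.mem h1) ha
  obtain ⟨m, hm⟩ := M.congr hu h1
  obtain ⟨l, m', w, a1, a2⟩ := gd hm h32
  obtain ⟨c, hc⟩ := M.ex' l
  have h2 := M.add_two (M.mul hv (M.mul (ho.lab M hc) (M.inv (M.neg hc)))) (-m')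
  rw [← sub_eq_add_neg, a2, show w + (m' + m') + (-m' + -m') = w by abel] at h2
  refine ⟨_, _, ?_, pa_min M hs h2 a1, hr.conj c⟩
  calc x = x * c * (r * r)⁻¹ * (r * r) * c⁻¹ := by group
    _ = _ := by rw [hr.1, ← inv_eq_of_mul_eq_one_right hr.1]; group

variable (M' : MD z' Q' π' R') (H' : Hf z' g' z Q' Q R')
include M' H'

/-- an element of `Q'` over an octad vector does not induce a dodecad sign change -/
theorem not_dod {r : G} {o : Finset GolayPt} (ho : IsCw o) (h8 : o.card = 8) (hr : R' r ⟨vTwo o, vTwo_mem ho⟩)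
    {e : Finset GolayPt} {he : IsCw e} (h : Ov π r (signC e he)) : e.card ≠ 12 := fun h12 => by
  have A : ∀ c hc, (c ∩ o = ∅ ∨ o ⊆ c) → ∃ q v, Ov π' q (signC c hc) ∧ R q v ∧ Cst v e := fun c hc hh => by
    obtain ⟨q, q1, q2⟩ := H'.r M' c hc
    obtain ⟨v, hv⟩ := M.ex q q1
    have a1 : R' (q * r * q⁻¹) ⟨vTwo o, vTwo_mem ho⟩ := by
      have := q2.lab M' hr
      rcases hh with hh | hh
      · convert this using 1
        refine Subtype.ext (funext fun i => ?_)
        have : i ∈ c → i ∉ o := fun a b => Finset.notMem_empty i (hh ▸ Finset.mem_inter.2 ⟨a, b⟩)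
        clear hh
        rw [signC_apply]
        simp only [vTwo]
        split_ifs <;> simp_all
      · convert M'.neg this using 1
        refine Subtype.ext (funext fun i => ?_)
        have := @hh i
        rw [AddSubgroup.coe_neg, Pi.neg_apply, signC_apply]
        simp only [vTwo]
        split_ifs <;> simp_all
    have hl := M.mul hv (h.lab M (M.inv hv))
    have : ∃ w : leechLattice, ∀ i, ((w : Vec) i - if i ∈ e then 0 else (v : Vec) i) % 4 = 0 := by
      rcases M'.uniq hr a1 with a | a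
      · obtain ⟨w, hw⟩ := (M.one_iff hl).1 (.inl (by rw [← mul_assoc, ← mul_assoc, a, mul_inv_cancel]))
        refine ⟨w, fun i => ?_⟩
        have := add_sign e he v i
        rw [hw, AddSubgroup.coe_add, Pi.add_apply] at this
        omega
      · rw [← mul_assoc, ← mul_assoc, a, mul_inv_cancel_right] at hl
        obtain ⟨w, hw⟩ := M.congr H.h8 hl
        refine ⟨w, fun i => ?_⟩
        have := add_sign e he v i
        rw [hw, AddSubgroup.coe_add, AddSubgroup.coe_add, Pi.add_apply, Pi.add_apply, e8_val,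
          Pi.single_apply] at this
        split_ifs at this ⊢ <;> omega
    obtain ⟨w, hw⟩ := this
    exact ⟨q, v, q2, hv, cst_dodecad he h12 hw⟩
  obtain ⟨σ, σ1, σ2⟩ := H14.m24_octad_transitive (mem_octads cw_O0 card_O0) (mem_octads ho h8)
  have c1 : IsCw (σ • bits 2769128) := isCw_smul σ1 (isCw_bits (by decide +kernel))
  have c2 : (σ • bits 2769128).card = 8 := by rw [Finset.card_smul_finset]; decide +kernel
  have c3 : σ • bits 2769128 ∩ o = ∅ := by
    rw [← σ2, ← Finset.smul_finset_inter, show bits 2769128 ∩ bits 12656663 = ∅ by decide +kernel,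
      Finset.smul_finset_empty]
  obtain ⟨q, v, a1, a2, a, b, a3⟩ := A _ c1 (.inl c3)
  obtain ⟨q', v', b1, b2, a', b', b3⟩ := A _ ho (.inr le_rfl)
  have B : ∀ {q v c hc} (a b : ℤ), Ov π' q (signC c hc) → R q v →
      (∀ i, ((v : Vec) i - 2 * (if i ∈ e then a else b)) % 4 = 0) → (c.card = 8 ∨ c.card = 16) → (a - b) % 2 = 1 :=
    fun a b k1 k2 k3 k4 => by_contra fun k5 => by
      have := card_of_mem M' k1 (H.const M k2 (b := a) fun i => by have := k3 i; split_ifs at this <;> omega)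
      omega
  have d1 := B a b a1 a2 a3 (.inl c2)
  have d2 := B a' b' b1 b2 b3 (.inl h8)
  have d3 := B (a + a') (b + b') (signC_mul _ _ c1 ho ▸ a1.mul b1) (M.mul a2 b2) (fun i => by
    have := a3 i; have := b3 i
    rw [AddSubgroup.coe_add, Pi.add_apply]
    split_ifs at * <;> omega) (.inr (by
      have := H14.card_symmDiff_add (σ • bits 2769128) o
      rw [c3, Finset.card_empty] at this
      omega))
  omega

/-- an element of `Q'` over an octad vector induces an octad sign change or lies in `Q` -/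
theorem oct_of {r : G} {o : Finset GolayPt} (ho : IsCw o) (h8 : o.card = 8) (hr : R' r ⟨vTwo o, vTwo_mem ho⟩) :
    r ∈ Q ∨ ∃ y, y * z = z * y ∧ Ov π (y * r * y⁻¹) k0 := by
  obtain ⟨e, he, h⟩ := H.sign M (M'.mem hr) ((H'.comm M' hr).2 (by simp only [vTwo]; split_ifs <;> rfl))
  have := not_dod M H M' H' ho h8 hr h
  have := he.card_cases
  exact or_iff_not_imp_left.2 fun k => std M h (by have := mt (mem_of_card M h) k; omega)

include hs in
theorem exists_oct : ∃ r, PA s r ∧ Ov π r k0 := by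
  obtain ⟨r, hr⟩ := M'.ex' ⟨vTwo _, vTwo_mem cw_O0⟩
  obtain h | ⟨y, -, h⟩ := oct_of M H M' H' cw_O0 card_O0 hr
  · obtain ⟨q, hq⟩ := M'.ex' (w4 none (some 3) 1 rfl)
    have h8 := H.e ▸ H.h8
    have := (M'.comm_iff hr hq).1 (M.comm_inf (s_ne M h8) h (H.q ▸ M'.mem hr)
      (H'.const M' hq (b := 0) fun i => by rw [w4_apply]; split_ifs <;> rfl) (H.q ▸ M'.mem hq))
    exact absurd this (by rw [dot_w4]; decide +kernel)
  · exact ⟨_, (pa_min M' (hs.trans (isConj_iff.2 ⟨g, H.e⟩)) hr (norm_two card_O0)).conj y, h⟩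

include hs in
theorem fac_sign {x : G} {e : Finset GolayPt} {he : IsCw e} (h : Ov π x (signC e he)) (ha : PA s (x * x)) :
    Fac s x := by
  have hs' := hs.trans (isConj_iff.2 ⟨g, H.e⟩)
  have no : ∀ {z Q}, LX Q z → IsConj s z → x ∉ Q := fun L k hx =>
    (L.sqr x hx).elim ha.2.1 fun e => ha.2.2 (e ▸ k)
  by_cases h12 : e.card = 12
  · obtain ⟨r, r1, r2⟩ := H.r M e he
    obtain ⟨v, hv⟩ := M.ex _ (h.quot M r2)
    have h1 := M.mul hv (r2.lab M hv)
    rw [show x * r⁻¹ * (r * (x * r⁻¹) * r⁻¹) = x * x * (r * r)⁻¹ by group] at h1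
    obtain ⟨y, y1, y2⟩ : ∃ y : leechLattice, R (x * x) y ∧
        ∀ i, ((y : Vec) i - if i ∈ e then 0 else 2 * (v : Vec) i) % 8 = 0 := by
      rcases M'.lx.sqr r r1 with k | k <;> rw [k] at h1
      · refine ⟨_, by simpa using h1, fun i => ?_⟩
        rw [add_sign]
        split_ifs <;> simp
      · refine ⟨_, by simpa using M.mul h1 H.h8, fun i => ?_⟩
        rw [AddSubgroup.coe_add, Pi.add_apply, add_sign, e8_val, Pi.single_apply]
        split_ifs <;> omega
    obtain ⟨u, hu, h32⟩ := H.two M hs (M.mem y1) ha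
    obtain ⟨m, hm⟩ := M.congr hu y1
    obtain ⟨o, ho, h8, b, hb⟩ := dod he h12 y2 hm h32
    obtain ⟨q, hq⟩ := M.ex' ⟨vTwo o, vTwo_mem ho⟩
    have h2 : q⁻¹ * x ∈ Q' := by
      simpa [mul_assoc] using mul_mem (H.const M (M.mul (M.inv (M.neg hq)) hv) (b := b) fun i => by
        have := hb i
        simp only [AddSubgroup.coe_add, AddSubgroup.coe_neg, Pi.add_apply, Pi.neg_apply]
        omega) r1
    obtain k | ⟨y, k1, k2⟩ := oct_of M' H' M H ho h8 hq
    · exact absurd (by simpa using mul_mem k h2) (no M'.lx hs')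
    refine Fac.conj y (oct0 M' H' hs' ((pa_min M hs hq (norm_two h8)).conj y) k2 ?_ (by rw [conj_mul]; exact ha.conj y))
    have := M'.lx.norm y k1 _ (M'.lx.norm q ((H.comm M hq).2 (by simp only [vTwo]; split_ifs <;> rfl)) _ h2)
    convert this using 1
    group
  have := he.card_cases
  obtain ⟨y, -, k⟩ := std M h (by have := mt (mem_of_card M h) (no M.lx hs); omega)
  obtain ⟨r, r1, r2⟩ := exists_oct M H hs M' H'
  exact Fac.conj y (oct0 M H hs r1 r2 (k.quot M r2) (by rw [conj_mul]; exact ha.conj y))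

omit H M' H' in
/-- **a square root of a `2A`-involution is a product of two `2A`-involutions** -/
theorem fac (h1 : g * z * g⁻¹ ∈ Q) (h2 : g * z * g⁻¹ ≠ z) {x : G} (hx : x * z = z * x) (hQ : x * x ∈ Q)
    (ha : PA z (x * x)) : Fac z x := by
  obtain ⟨v, hv, hv'⟩ := M.type_four h1 h2
  obtain ⟨q, hq⟩ := M.ex' (e8 none)
  obtain ⟨c, -, h4⟩ := M.trans hv hq (Or.inr ⟨hv', norm_e8 _⟩)
  have h8 : R (c * g * z * (c * g)⁻¹) (e8 none) := by
    rwa [show c * g * z * (c * g)⁻¹ = c * (g * z * g⁻¹) * c⁻¹ by group, h4]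
  generalize c * g = g at h8
  have e : g⁻¹ * (g * z * g⁻¹) * g⁻¹⁻¹ = z := by group
  obtain ⟨j, hj⟩ := (M.cj g).exists_twist (g := g⁻¹) (by rw [e]; exact z_mem M h8) (by rw [e]; exact (s_ne M h8).symm)
  rw [e] at hj
  obtain ⟨k, hk⟩ := ov_ex π (mem_centralizer_singleton_iff.2 hx)
  have H : Hf z g _ Q _ R := ⟨rfl, rfl, h8⟩
  obtain ⟨u, hu, h32⟩ := H.two M (.refl z) hQ ha
  have k1 : k * k = 1 := (co1_eq_iff.1 ((ov_one M hQ).2.trans (hk.mul hk).2.symm)).resolve_right fun e => by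
    have a1 := hk.lab M hu
    rw [show x * (x * x) * x⁻¹ = x * x by group] at a1
    obtain ⟨w, hw⟩ := M.congr hu a1
    have a2 := dot_zero (e.trans (mul_one _)) u
    have a3 := co0_norm k u
    rcases (short_congr hw (by omega) (by omega) (by omega) (by omega)).2 (by omega) with a | a
    · rw [← a, dot_self] at a2
      omega
    · rw [← neg_eq_iff_eq_neg.2 a, AddSubgroup.coe_neg, dot_neg_right, dot_self] at a2
      omega
  obtain ⟨o, ho, hc⟩ := H26.CoInv.isConj_signC k1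
  obtain ⟨i, hi⟩ := isConj_iff.1 hc
  obtain ⟨y, hy⟩ := ov_lift M i
  exact Fac.conj y (fac_sign M H (.refl z) ((M.cj g).twist j) ⟨e, Subgroup.ext fun a => by
    simp [mem_cjs, mul_assoc], hj⟩ (hi ▸ hy.conj hk) (by rw [conj_mul]; exact ha.conj y))

end Cfsg.Agent.LAY.BV
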