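import Cfsg.Agent.H38.MonTwoC
import Cfsg.Agent.H15.Charac

/-! Project LAY, the Baby Monster: vectors `v` of the Leech lattice with `v + ε v` of type `2` modulo `2Λ`. -/

set_option autoImplicit false

namespace Cfsg.Agent.LAY.BV

open H15 H38.MT Finset
open Cfsg.Agent.H14 (idx bits enc)
open scoped Pointwise

/-- the standard octad sign change -/
noncomputable abbrev k0 : Co0 := signC _ cw_O0

/-- `v` is congruent to a minimal vector modulo `2Λ + [Λ, k₀]` -/
def Gd (v : leechLattice) : Prop :=
  ∃ l m w : leechLattice, sqNorm (w : Vec) = 32 ∧ v + (k0 • l - l) = w + (m + m)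

theorem Gd.add {v : leechLattice} (l m : leechLattice) (h : Gd (v + (k0 • l - l) + (m + m))) : Gd v := by
  obtain ⟨l', m', w, h1, h2⟩ := h
  refine ⟨l + l', m' - m, w, h1, ?_⟩
  rw [co0_smul_add, show w + (m' - m + (m' - m)) = w + (m' + m') - (m + m) by abel, ← h2]
  abel

theorem Gd.conj {v : leechLattice} {h : Co0} (hc : h * k0 = k0 * h) (H : Gd (h • v)) : Gd v := by
  obtain ⟨l, m, w, h1, h2⟩ := H
  refine ⟨h⁻¹ • l, h⁻¹ • m, h⁻¹ • w, by rwa [co0_norm], ?_⟩
  rw [← co0_smul_add, ← co0_smul_add, ← h2, co0_smul_add, co0_smul_sub, inv_smul_smul, ← mul_smul, ← mul_smul,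
    (show Commute h k0 from hc).inv_left.eq]

theorem gd_of {v l m w : leechLattice} {n : Vec} (h1 : sqNorm (w : Vec) = 32) (h : ∀ i, (v : Vec) i = (w : Vec) i +
    (if i ∈ bits 12656663 then -2 * (l : Vec) i else 0) + 2 * (m : Vec) i + 8 * n i) : Gd v := by
  refine ⟨-l + (∑ i, n i) • w4 none (some 3) 1 rfl, m + ⟨fun i => 4 * n i - if i = none then 4 * ∑ i, n i else 0,
    mem_leech_of_four_dvd (fun i => by split_ifs <;> omega) (by
      rw [sum_sub_distrib, sum_ite_eq', if_pos (mem_univ _), ← mul_sum, sub_self]; rfl)⟩, w, h1,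
    Subtype.ext (funext fun i => ?_)⟩
  have k : ∀ i : GolayPt, (i = none → i ∈ bits 12656663 ∧ i ≠ some 3) ∧ (i = some 3 → i ∉ bits 12656663) := by
    decide +kernel
  have := k i
  simp only [AddSubgroup.coe_add, AddSubgroup.coe_sub, Pi.add_apply, Pi.sub_apply, signC_apply, AddSubgroup.coe_neg,
    Pi.neg_apply, AddSubgroup.coe_zsmul, Pi.smul_apply, smul_eq_mul, w4_apply, h]
  split_ifs <;> first | ring1 | simp_all

def crt : List (ℕ × ℕ) := [(0, 9748745), (0, 11272490), (0, 12222476), (0, 11952160), (0, 10916112),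
  (2826278, 10305542), (10825794, 2605066), (864389, 10846245), (15274244, 3227948), (15073798, 1474854),
  (10630149, 3031301), (7145475, 11731203), (0, 11952160), (0, 11952160), (13062145, 2031657), (9347075, 3719203),
  (0, 9158944), (0, 11952160), (0, 11952160), (0, 11952160), (5902343, 8536111), (0, 11952160), (0, 11952160), (0, 0)]

theorem crt_spec : ∀ i : GolayPt, enc (crt.getD (idx i) 0).1 = (crt.getD (idx i) 0).1 ∧
    enc (crt.getD (idx i) 0).2 = (crt.getD (idx i) 0).2 ∧ ∀ j, j ∈ bits 7221256 ∨ (vFour i j -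
      (if j ∈ bits 12656663 then -2 * vTwo (bits (crt.getD (idx i) 0).2) j else 0) -
        2 * vTwo (bits (crt.getD (idx i) 0).1) j) % 8 = 0 := by
  decide +kernel

theorem cw_C0 : IsCw (bits 7221256) := isCw_bits (by decide +kernel)

theorem gd_std {v : leechLattice} (he : ∀ i, (v : Vec) i % 2 = 0) (ht : tw v = bits 7221256) : Gd v := by
  let S : AddSubgroup Vec :=
    { carrier := {x | ∃ (l m : leechLattice) (y : Vec), (∀ i, y i % 4 = 0 ∧ (i ∈ bits 7221256 ∨ y i % 8 = 0)) ∧
        ∀ i, x i = (if i ∈ bits 12656663 then -2 * (l : Vec) i else 0) + 2 * (m : Vec) i + y i}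
      zero_mem' := ⟨0, 0, 0, by simp, by simp⟩
      add_mem' := by
        rintro x x' ⟨l, m, y, h1, h2⟩ ⟨l', m', y', h1', h2'⟩
        refine ⟨l + l', m + m', y + y', fun i => ?_, fun i => ?_⟩
        · have := h1 i; have := h1' i
          rw [Pi.add_apply]
          by_cases hi : i ∈ bits 7221256 <;> simp only [hi, true_or, false_or, and_true] at * <;> omega
        · simp only [Pi.add_apply, AddSubgroup.coe_add, h2, h2']
          split_ifs <;> ring
      neg_mem' := by
        rintro x ⟨l, m, y, h1, h2⟩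
        refine ⟨-l, -m, -y, fun i => ?_, fun i => ?_⟩
        · have := h1 i
          rw [Pi.neg_apply]
          by_cases hi : i ∈ bits 7221256 <;> simp only [hi, true_or, false_or, and_true] at * <;> omega
        · simp only [Pi.neg_apply, AddSubgroup.coe_neg, h2]
          split_ifs <;> ring }
  have h3 : ∀ i, vFour i ∈ S := fun i => by
    obtain ⟨a1, a2, a3⟩ := crt_spec i
    refine ⟨⟨_, vTwo_mem (isCw_bits a2)⟩, ⟨_, vTwo_mem (isCw_bits a1)⟩, fun j => vFour i j -
      (if j ∈ bits 12656663 then -2 * vTwo (bits (crt.getD (idx i) 0).2) j else 0) -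
        2 * vTwo (bits (crt.getD (idx i) 0).1) j, fun j => ⟨?_, a3 j⟩, fun j => by ring⟩
    simp only [vFour, vTwo, Pi.add_apply, Pi.single_apply]
    split_ifs <;> rfl
  let x : leechLattice := v - ⟨_, vTwo_mem cw_C0⟩
  have hx : ∀ i, (x : Vec) i = (v : Vec) i - if i ∈ bits 7221256 then 2 else 0 := fun i => rfl
  have x4 : ∀ i, (x : Vec) i % 4 = 0 := fun i => by
    have := he i
    rw [hx, ← ht]
    simp only [mem_tw]
    split_ifs <;> omega
  have e : (x : Vec) = fun i => 4 * ((x : Vec) i / 4) := funext fun i => by have := x4 i; omega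
  have hs := (even_of (v := x) (i := none) (by have := x4 none; omega)).2
  obtain ⟨l, m, y, h1, h2⟩ := four_mul_mem S h3 (fun i => (x : Vec) i / 4) (by
    rw [e, ← Finset.mul_sum] at hs; omega)
  let w : Vec := fun i => if i ∈ bits 7221256 then if y i % 8 = 0 then 2 else -2 else 0
  let n : Vec := fun i => ((if i ∈ bits 7221256 then 2 else 0) + y i - w i) / 8
  have k : ∀ i, (v : Vec) i = w i + (if i ∈ bits 12656663 then -2 * (l : Vec) i else 0) + 2 * (m : Vec) i + 8 * n i :=
    fun i => by
      have a1 := h1 i; have a2 := h2 i; have a3 := hx i; have a4 := x4 i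
      generalize (if i ∈ bits 12656663 then -2 * (l : Vec) i else 0) = s at *
      simp only [n, w]
      by_cases hi : i ∈ bits 7221256 <;> simp only [hi, true_or, false_or, and_true, if_true, if_false] at * <;>
        (try split_ifs) <;> omega
  have hw : w ∈ leechLattice := by
    convert sub_mem (v - (k0 • l - l) - (m + m)).2 (eight_smul_mem n) using 1
    funext i
    simp only [AddSubgroup.coe_add, AddSubgroup.coe_sub, Pi.add_apply, Pi.sub_apply, signC_apply, Pi.smul_apply,
      smul_eq_mul, k]
    split_ifs <;> ring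
  refine gd_of (w := ⟨w, hw⟩) ?_ k
  rw [sqNorm, sum_congr rfl (g := fun i => if i ∈ bits 7221256 then 4 else 0) fun i _ => by
    simp only [w]; split_ifs <;> rfl]
  decide +kernel

theorem card_O0 : (bits 12656663).card = 8 := by decide +kernel

theorem gd_oct {v : leechLattice} (he : ∀ i, (v : Vec) i % 2 = 0) (h8 : (tw v).card = 8)
    (h2 : (bits 12656663 ∩ tw v).card = 2) : Gd v := by
  obtain ⟨σ, e1, e2⟩ := H56.exists_smul_disjoint (mem_octads cw_O0 card_O0) (mem_octads (tw_cw v) h8)
    (mem_octads cw_O0 card_O0) (mem_octads cw_C0 (by decide +kernel)) (h2.trans (by decide +kernel))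
  replace e1 : (σ : Equiv.Perm GolayPt) • bits 12656663 = bits 12656663 := e1
  replace e2 : (σ : Equiv.Perm GolayPt) • tw v = bits 7221256 := e2
  refine Gd.conj (h := permC σ) (mul_inv_eq_iff_eq_mul.1 (by rw [permC_conj_signC]; congr 1))
    (gd_std (fun i => he _) ?_)
  ext i
  rw [← e2, mem_perm_smul, mem_tw, mem_tw, permC_apply]

/-- changing `v` by `[k₀, λ]` and `2λ` for an odd vector -/
theorem gd_mod {v : leechLattice} (he : ∀ i, (v : Vec) i % 2 = 0) (b : ℤ) (E : Finset GolayPt)
    (hE : ∀ i, ((if i ∈ bits 12656663 then 1 else 0) + b - if i ∈ E then 1 else 0) % 2 = 0)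
    (h : ∀ v' : leechLattice, (∀ i, (v' : Vec) i % 2 = 0) → tw v' = symmDiff (tw v) E → Gd v') : Gd v := by
  have k : ∀ i, ((v + (k0 • lOdd - lOdd) + (b • lOdd + b • lOdd) : leechLattice) : Vec) i % 4 =
      ((v : Vec) i + if i ∈ E then 2 else 0) % 4 := fun i => by
    have := hE i
    simp only [AddSubgroup.coe_add, AddSubgroup.coe_sub, Pi.add_apply, Pi.sub_apply, signC_apply,
      AddSubgroup.coe_zsmul, Pi.smul_apply, smul_eq_mul]
    rcases lOdd_val i with e | e <;> rw [e] <;> split_ifs at * <;> omega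
  refine Gd.add lOdd (b • lOdd) (h _ (fun i => ?_) (Finset.ext fun i => ?_))
  · have := k i; have := he i
    split_ifs at * <;> omega
  · have := he i
    rw [mem_symmDiff, mem_tw, mem_tw, k]
    by_cases hi : i ∈ E <;> simp only [hi, if_true, if_false, not_true, not_false_iff, and_true, and_false, false_or,
      true_and, false_and, or_false] <;> omega

theorem gd_two {v : leechLattice} (he : ∀ i, (v : Vec) i % 2 = 0) (h2 : (bits 12656663 ∩ tw v).card = 2) : Gd v := by
  by_cases h8 : (tw v).card = 8
  · exact gd_oct he h8 h2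
  refine gd_mod he 1 (bits 12656663)ᶜ (fun i => by simp only [mem_compl]; split_ifs <;> simp_all) fun v' a1 a2 =>
    gd_oct a1 ?_ ?_
  · have b1 := (tw_cw v).card_cases
    have b2 := (tw_cw v').card_cases
    have b3 := H14.card_symmDiff_add (tw v) (bits 12656663)ᶜ
    have b4 := card_inter_add_card_sdiff (tw v) (bits 12656663)
    rw [← a2, card_compl', card_O0, ← sdiff_eq_inter_compl] at b3
    rw [inter_comm] at b4
    omega
  · rw [← h2, a2]
    congr 1
    ext i
    simp only [mem_inter, mem_symmDiff, mem_compl]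
    tauto

theorem gd_six {v : leechLattice} (he : ∀ i, (v : Vec) i % 2 = 0) (h2 : (bits 12656663 ∩ tw v).card = 6) : Gd v := by
  refine gd_mod he 0 (bits 12656663) (fun i => by split_ifs <;> rfl) fun v' a1 a2 => gd_two a1 ?_
  have b4 := card_inter_add_card_sdiff (bits 12656663) (tw v)
  rw [card_O0] at b4
  rw [a2, show bits 12656663 ∩ symmDiff (tw v) (bits 12656663) = bits 12656663 \ tw v by
    ext i; simp only [mem_inter, mem_symmDiff, mem_sdiff]; tauto]
  omega

/-- a vector with coordinates divisible by `4` which is of type `2` modulo `2Λ` -/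
theorem duad {y u m : leechLattice} (hy : ∀ i, (y : Vec) i % 4 = 0) (e : y = u + (m + m))
    (hu : sqNorm (u : Vec) = 32) : ∃ D c : Finset GolayPt, D.card = 2 ∧ IsCw c ∧
      ∀ i, ((y : Vec) i % 8 = 4 ↔ (i ∈ c ↔ i ∉ D)) := by
  have k : ∀ i, (y : Vec) i = (u : Vec) i + ((m : Vec) i + (m : Vec) i) := fun i => by rw [e]; rfl
  have hm : ∀ i, (m : Vec) i % 2 = 0 := by
    refine ((parity_cases m.2).resolve_right fun h => ?_).1
    have := four_card_le u univ fun i _ => by have := k i; have := hy i; have := h.1 i; omega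
    rw [card_univ, card_pt] at this
    omega
  have h4 : ∀ i, (u : Vec) i % 4 = 0 := fun i => by have := k i; have := hy i; have := hm i; omega
  have hs : HasShape u 22 0 0 0 2 0 0 0 0 := by
    rcases shape32 u.2 hu with h | h | h
    · exact h
    · obtain ⟨i, hi⟩ := exists_of_cnt_pos (h.2.2.1 ▸ (by decide : 0 < 8))
      have := h4 i
      rw [abs_eq (by decide)] at hi
      omega
    · obtain ⟨i, hi⟩ := exists_of_cnt_pos (h.2.1 ▸ (by decide : 0 < 23))
      have := h4 i
      rw [abs_eq (by decide)] at hi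
      omega
  refine ⟨univ.filter fun i => |(u : Vec) i| = 4, tw m, hs.2.2.2.2.1, tw_cw m, fun i => ?_⟩
  have := k i; have := hm i; have := hs.abs_cases (by omega) i
  simp only [mem_tw, mem_filter, mem_univ, true_and]
  rcases abs_cases ((u : Vec) i) with ⟨a, -⟩ | ⟨a, -⟩ <;> rw [a] at this ⊢ <;> omega

theorem cases_duad {U δ c D : Finset GolayPt} (hU : IsCw U) (hc : IsCw c) (hD : D.card = 2) (h1 : δ ⊆ U)
    (h : ∀ i, i ∈ δ ↔ (i ∈ c ↔ i ∉ D)) : (c ⊆ U ∧ δ = symmDiff c D ∧ D ⊆ U) ∨ (D ⊆ Uᶜ ∧ c = δ ∪ D) := by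
  by_cases h2 : c ⊆ U
  · refine .inl ⟨h2, Finset.ext fun i => by rw [h, mem_symmDiff]; tauto, fun i hi => by_contra fun e => ?_⟩
    have := mt (@h1 i) e; have := mt (@h2 i) e; have := h i
    tauto
  obtain ⟨p, p1, p2⟩ := not_subset.1 h2
  have h3 : c ∩ Uᶜ ⊆ D := fun i hi => by
    rw [mem_inter, mem_compl] at hi
    have := mt (@h1 i) hi.2; have := h i
    tauto
  have h4 : c ∩ Uᶜ = D := eq_of_subset_of_card_le h3 (by
    have := card_pos.2 ⟨p, mem_inter.2 ⟨p1, mem_compl.2 p2⟩⟩
    obtain ⟨r, hr⟩ := hc.inter_even hU.compl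
    omega)
  refine .inr ⟨h4 ▸ inter_subset_right, Finset.ext fun i => ?_⟩
  have := @inter_subset_left _ _ c Uᶜ i
  rw [h4] at this
  have := h i
  rw [mem_union]
  tauto

theorem gd_even {v u m : leechLattice} (he : ∀ i, (v : Vec) i % 2 = 0) (e : v + k0 • v = u + (m + m))
    (hu : sqNorm (u : Vec) = 32) : Gd v := by
  have k : ∀ i, ((v - k0 • v : leechLattice) : Vec) i = if i ∈ bits 12656663 then 2 * (v : Vec) i else 0 := fun i => by
    rw [AddSubgroup.coe_sub, Pi.sub_apply, signC_apply]
    split_ifs <;> ring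
  obtain ⟨D, c, h1, h2, h3⟩ := duad (y := v - k0 • v) (m := m - k0 • v)
    (fun i => by have := he i; rw [k]; split_ifs <;> omega)
    (by rw [show u + (m - k0 • v + (m - k0 • v)) = u + (m + m) - (k0 • v + k0 • v) by abel, ← e]; abel) hu
  have h4 := card_le_card (inter_subset_left (s₁ := bits 12656663) (s₂ := tw v))
  rw [card_O0] at h4
  rcases cases_duad (δ := bits 12656663 ∩ tw v) cw_O0 h2 h1 inter_subset_left (fun i => by
    have := he i
    rw [← h3, k, mem_inter, mem_tw]
    split_ifs with hi <;> simp only [hi, true_and, false_and, false_iff] <;> omega) with ⟨a1, a2, a3⟩ | ⟨a1, a2⟩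
  · rcases sub_cases h2 cw_O0 a1 with rfl | rfl | h
    · exact gd_two he (by rw [a2, symmDiff_of_le (empty_subset _), sdiff_empty, h1])
    · exact gd_six he (by rw [a2, symmDiff_of_ge a3, card_sdiff_of_subset a3, card_O0, h1])
    · rw [card_O0] at h; omega
  · have := h2.card_cases
    rw [a2, card_union_of_disjoint (disjoint_left.2 fun i hi hj => mem_compl.1 (a1 hj) (mem_inter.1 hi).1)] at this
    exact gd_six he (by omega)

/-- **the octad case** -/
theorem gd {v u m : leechLattice} (e : v + k0 • v = u + (m + m)) (hu : sqNorm (u : Vec) = 32) : Gd v := by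
  have A : ∀ h : Co0, h * k0 = k0 * h → ((h • v : leechLattice) : Vec) none % 2 = 0 → Gd v := fun h h1 h2 =>
    Gd.conj h1 (gd_even (u := h • u) (m := h • m) (even_of h2).1 (by
      rw [← mul_smul, ← h1, mul_smul, ← co0_smul_add, e, co0_smul_add, co0_smul_add]) (by rwa [co0_norm]))
  rcases parity_cases v.2 with ⟨h, -⟩ | ⟨h, -⟩
  · exact gd_even h e hu
  have B : ∀ w : leechLattice, (w : Vec) none % 2 = 1 → tS w (tet none) % 4 = 2 →
      ((xi • w : leechLattice) : Vec) none % 2 = 0 := fun w a1 a2 => by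
    have := xi_tS w none
    split_ifs at this <;> omega
  have h1 := tS_dvd 2 (v := v) (w := fun _ => 1) (t := tet none) fun j _ => by have := h j; omega
  rw [tS_one _ (tet_lt _)] at h1
  by_cases h2 : tS v (tet none) % 4 = 2
  · exact A xi xi_comm (B v (h _) h2)
  refine A (xi * signC _ cw_c) (by rw [mul_assoc, signG_comm (signC_mem_signG _ cw_c) (signC_mem_signG _ cw_O0),
    ← mul_assoc, xi_comm, mul_assoc]) ?_
  rw [mul_smul]
  refine B _ (by have := h none; rw [signC_apply]; split_ifs <;> omega) ?_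
  have h3 := tS_dvd 4 (v := (signC _ cw_c • v : leechLattice)) (w := fun j => (v : Vec) j + vTwo (bits 4845570) j)
    (t := tet none) fun j _ => by have := h j; rw [signC_apply, vTwo]; split_ifs <;> omega
  have h4 : tS (fun j => (v : Vec) j + vTwo (bits 4845570) j) (tet none) =
      tS v (tet none) + tS (vTwo (bits 4845570)) (tet none) := by
    rw [tS, tS, tS, ← sum_add_distrib]
    exact sum_congr rfl fun j _ => by split_ifs <;> simp
  have h5 : tS (vTwo (bits 4845570)) (tet none) % 4 = 2 := by decide +kernel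
  omega

/-- **the dodecad case** -/
theorem dod {e : Finset GolayPt} (he : IsCw e) (h12 : e.card = 12) {v y u m : leechLattice}
    (hy : ∀ i, ((y : Vec) i - if i ∈ e then 0 else 2 * (v : Vec) i) % 8 = 0) (h : y = u + (m + m))
    (hu : sqNorm (u : Vec) = 32) : ∃ o, IsCw o ∧ o.card = 8 ∧ ∃ b : ℤ, ∀ i, ((v : Vec) i - vTwo o i - 2 * b) % 4 = 0 := by
  have k : ∀ i, (y : Vec) i = (u : Vec) i + ((m : Vec) i + (m : Vec) i) := fun i => by rw [h]; rfl
  have hc : eᶜ.card = 12 := by rw [card_compl', h12]
  have hv : ∀ i, (v : Vec) i % 2 = 0 := by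
    refine ((parity_cases v.2).resolve_right fun a => ?_).1
    rcases parity_cases m.2 with b | b
    · have := four_card_le u eᶜ fun i hi => by
        have := k i; have := hy i; have := a.1 i; have := b.1 i
        rw [if_neg (mem_compl.1 hi)] at *
        omega
      omega
    · have := four_card_le u e fun i hi => by
        have := k i; have := hy i; have := b.1 i
        rw [if_pos hi] at *
        omega
      omega
  obtain ⟨D, c, h1, h2, h3⟩ := duad (fun i => by have := hv i; have := hy i; split_ifs at * <;> omega) h hu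
  have h8 : (tw v).card = 8 ∨ (tw v).card = 16 := by
    have b1 := (tw_cw v).card_cases
    have b2 := ((tw_cw v).symmDiff he).card_cases
    have b3 := H14.card_symmDiff_add (tw v) e
    have b4 := card_inter_add_card_sdiff (tw v) e
    have b5 := card_le_card (inter_subset_right (s₁ := tw v) (s₂ := e))
    have b6 : tw v \ e ⊆ eᶜ := fun i hi => mem_compl.2 (mem_sdiff.1 hi).2
    have b7 := card_le_card b6
    rcases cases_duad he.compl h2 h1 b6 (fun i => by
      have := hv i; have := hy i
      rw [← h3, mem_sdiff, mem_tw]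
      split_ifs at * with hi <;> simp only [hi, not_true, not_false_iff, and_true, and_false, false_iff] <;> omega)
      with ⟨a1, a2, a3⟩ | ⟨a1, a2⟩
    · rcases sub_cases h2 he.compl a1 with rfl | rfl | h
      · have : (tw v \ e).card = 2 := by rw [a2, symmDiff_of_le (empty_subset _), sdiff_empty, h1]
        omega
      · have : (tw v \ e).card = 10 := by rw [a2, symmDiff_of_ge a3, card_sdiff_of_subset a3, hc, h1]
        omega
      · omega
    · rw [compl_compl] at a1
      have c1 := h2.card_cases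
      have c2 : symmDiff (tw v) c ⊆ e := fun i hi => by_contra fun hn => by
        have := mt (@a1 i) hn
        rw [a2, mem_symmDiff, mem_union, mem_sdiff] at hi
        exact hi.elim (fun k => k.2 (.inl ⟨k.1, hn⟩)) fun k => k.1.elim (fun l => k.2 l.1) this
      have c3 := (h2.symmDiff he).card_cases
      have c4 := H14.card_symmDiff_add c e
      have c5 : c ∩ e = D := Finset.ext fun i => by
        rw [a2, mem_inter, mem_union, mem_sdiff]
        exact ⟨fun h => h.1.resolve_left fun k => k.2 h.2, fun h => ⟨.inr h, a1 h⟩⟩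
      have c6 := card_le_card (inter_subset_left (s₁ := c) (s₂ := e))
      rw [c5] at c4 c6
      rcases sub_cases ((tw_cw v).symmDiff h2) he c2 with h | h | h
      · have : (tw v).card = c.card := congrArg _ (symmDiff_eq_bot.1 h)
        have : (symmDiff (tw v) e).card = (symmDiff c e).card := by rw [symmDiff_eq_bot.1 h]
        omega
      · have : tw v = symmDiff c e := by rw [← h, symmDiff_comm (tw v), symmDiff_symmDiff_cancel_left]
        have a3 : (symmDiff (tw v) e).card = c.card := by rw [this, symmDiff_symmDiff_cancel_right]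
        have := congrArg card this
        omega
      · omega
  rcases h8 with h8 | h8
  · refine ⟨_, tw_cw v, h8, 0, fun i => ?_⟩
    have := hv i
    simp only [vTwo, mem_tw]
    split_ifs <;> omega
  · refine ⟨_, (tw_cw v).compl, by rw [card_compl', h8], 1, fun i => ?_⟩
    have := hv i
    simp only [vTwo, mem_compl, mem_tw]
    split_ifs <;> omega

end Cfsg.Agent.LAY.BV
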