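import Cfsg.Agent.LAY.Defs
import Cfsg.Prelude.Def_Classification2
import Cfsg.Agent.H37.Levi
import Cfsg.Agent.H37.OkE6
import Cfsg.Agent.S1066

/-! Project LAY: the centraliser of an element of order `17` in `²E₆(2)`. -/

set_option autoImplicit false

namespace Cfsg.Agent.LAY

open Cfsg Subgroup

namespace E617

open Cfsg.Lie Cfsg.Lie.ChevalleyDatum Cfsg.Agent.H37 Cfsg.Agent.H38 Finset H39 H40 Chev
open scoped Matrix

/-- the matrix of the twisted Weyl group element -/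
def mw : List (List ℤ) := [[0, 0, 0, 0, 0, 1], [0, 0, 1, 1, 0, 0], [0, 1, 1, 1, 1, 0], [0, -1, -1, -1, 0, 0],
  [0, 1, 0, 1, 0, 0], [1, 0, 1, 0, 0, 0]]

/-- a multiple of the inverse of `2 M - 1` -/
def mb : List (List ℤ) := [[17, 24, 28, 72, 56, 34], [0, -27, -6, -30, -12, 0], [0, -18, -21, -54, -42, 0],
  [0, 30, 18, 39, 36, 0], [0, 6, 24, 18, -3, 0], [34, 12, 14, 36, 28, 17]]

/-- the point of order `17` -/
def b0 : Fin chevE6.rank → ℤ := toF chevE6.rank [0, 7, 11, 4, 5, 0]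

theorem pr_toF (y : List ℤ) (r : Fin chevE6.nroots) :
    pr r (toF chevE6.rank y) = sumLt 6 fun i => y.getD i 0 * E6.tab.car i r := by
  rw [sumLt_eq, sum_range, pr_apply]
  exact sum_congr rfl fun i _ => by rw [E6.checked.agree.car_eq _ i.2 _ r.2]; rfl

theorem b0_reg : ∀ r, ¬ (17 : ℤ) ∣ pr r b0 := by
  simp only [b0, pr_toF]
  decide +kernel

theorem exists_w : ∃ w ∈ (rs chevE6).W, ∀ τ : Equiv.Perm (Fin chevE6.nroots), (∀ r, (τ r : ℕ) = tauE6 r) →
    wM (w * τ) = Matrix.of fun i j : Fin chevE6.rank => gl mw i j := by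
  obtain ⟨w, hw, h⟩ := E6.checked.exists_wF [1, 2, 3] (by decide +kernel)
  refine ⟨w, hw, fun τ hτ => Matrix.ext fun i j => ?_⟩
  rw [wM, cv, ← E6.checked.agree.co_eq _ (Fin.is_lt _) _ j.2, Equiv.Perm.mul_apply, h, hτ, rs_sp_val,
    Matrix.of_apply]
  revert i j; decide +kernel

theorem tor {k : Type*} [Field k] {c : Fin chevE6.rank → kˣ}
    (h : zact ((2 : ℤ) • Matrix.of fun i j : Fin chevE6.rank => gl mw i j) c = c) : c ^ 51 = 1 := by
  rw [← zact_sub_one, MonoidHom.mem_ker] at h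
  have key : ∀ (B : List (List ℤ)) (N : Matrix (Fin chevE6.rank) (Fin chevE6.rank) ℤ),
      (∀ i j, N i j = ∑ l : Fin chevE6.rank, (2 * gl mw i l - if i = l then 1 else 0) * gl B l j) →
      ∀ j, ∏ i, c i ^ N i j = 1 := fun B N hN j => by
    have := congrArg (zact (Matrix.of fun i j : Fin chevE6.rank => gl B i j)) h
    rw [← zact_mul, map_one] at this
    refine Eq.trans (prod_congr rfl fun i _ => ?_) ((zact_apply _ _ _).symm.trans (congrFun this j))
    simp [hN, Matrix.mul_apply, Matrix.one_apply]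
  refine funext fun j => ?_
  simpa only [← zpow_natCast, pow_ite, zpow_zero, prod_ite_eq, prod_ite_eq', mem_univ, if_true, Pi.pow_apply,
    Pi.one_apply] using key mb (fun i j => if i = j then ((51 : ℕ) : ℤ) else 0) (by decide +kernel) j

theorem exists_reg {k : Type*} [Field k] [IsAlgClosed k] {Γ : Type*} [Group Γ] {A : Cov isChev_E6 k Γ} (hA : A.SC)
    {Φ : A.Frob} (he : ∀ r, Φ.e r = 2) {ζ : kˣ} (hζ : IsPrimitiveRoot ζ 17) (hτ : ∀ r, (Φ.τ r : ℕ) = tauE6 r)
    {G : Type*} [Group G] (μ : Φ.Model G) : ∃ x : G, x ≠ 1 ∧ x ^ 17 = 1 ∧ ∀ y, y * x = x * y → y ^ 51 = 1 := by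
  obtain ⟨w, hw, h1⟩ := exists_w
  obtain ⟨n, hn⟩ := A.X.exists_rep hw
  obtain ⟨μ'⟩ := μ.exists_twist hn
  have hM := (Φ.twist hn).M_eq he
  rw [Cov.Frob.twist_τ, h1 Φ.τ hτ] at hM
  have h4 : (Φ.twist hn).σ (A.T (expY ζ b0)) = A.T (expY ζ b0) := by
    rw [Cov.Frob.σ_T, hM, zact_expY]
    refine congrArg _ (funext fun j => zpow_eq_zpow_iff_modEq.2 ?_)
    simp only [← hζ.eq_orderOf, Matrix.vecMul, dotProduct, Matrix.smul_apply, Matrix.of_apply]
    revert j; decide +kernel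
  obtain ⟨x, hx⟩ := (μ'.fix_iff _).1 h4
  have h5 : ∀ r : Fin chevE6.nroots, rootChar chevE6 r (expY ζ b0) ≠ 1 := fun r h => b0_reg r (by
    rw [rootChar_expY] at h
    exact (hζ.zpow_eq_one_iff_dvd _).1 h)
  refine ⟨x, fun e => h5 ⟨0, by decide⟩ ?_, μ'.inj ?_, fun y hy => ?_⟩
  · rw [e, map_one, ← map_one A.T] at hx
    rw [← hA hx, map_one]
  · rw [map_pow, hx, ← map_pow, ← zpow_natCast, ← expY_zpow, zpow_natCast, hζ.pow_eq_one, map_one, ← map_one A.T]
    exact congrArg _ (funext fun i => one_zpow _)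
  · obtain ⟨c, hc⟩ := A.mem_H_iff.1 (hA.cent_le_H ((Φ.twist hn).isOfFinOrder_of_fix (A.torus_mem _) h4) h5
      (show μ'.ι y ∈ _ by rw [mem_centralizer_singleton_iff, ← hx, ← map_mul, hy, map_mul]))
    have h6 := μ'.fix y
    rw [← hc, Cov.Frob.σ_T, hM] at h6
    exact μ'.inj (by rw [map_pow, ← hc, ← map_pow, tor (hA h6), map_one, map_one])

theorem exists_elt {K : Type*} [Field K] [Fintype K] (hK : Fintype.card K = 4) :
    ∃ x : twistedE6 K 2, orderOf x = 17 ∧ ∀ y, y * x = x * y → y ^ 51 = 1 := by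
  obtain ⟨Φ, G, μ, π, h1, h2, h3, h4⟩ := exists_model_2E6 (K := K) (q := 2) Nat.prime_two.isPrimePow hK
  have : CharP K 2 := charP_of_card_eq_prime_pow (p := 2) (f := 2) hK
  have : NeZero ((17 : ℕ) : AlgebraicClosure K) := ⟨fun h => by
    simpa using (CharP.cast_eq_zero_iff (AlgebraicClosure K) 2 17).1 h⟩
  obtain ⟨ζ, hζ⟩ := HasEnoughRootsOfUnity.exists_primitiveRoot (AlgebraicClosure K) 17
  have h5 : ∀ z, π z = 1 → z ^ 3 = 1 ∧ ∀ g, z * g = g * z := fun z hz => by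
    obtain ⟨c, hc, e⟩ := Cov.exists_centT _ ((h2 z).1 hz)
    exact ⟨μ.inj (by rw [map_pow, ← e, ← map_pow, centT_pow H64.hasInv_E6 hc, map_one, map_one]),
      fun g => μ.inj (by rw [map_mul, map_mul, Cov.comm_of_ker _ ((h2 z).1 hz)])⟩
  have h6 : ∀ z, π z = 1 → z ^ 17 = 1 → z = 1 := fun z hz h => by
    rw [← pow_one z, ← show Nat.gcd 3 17 = 1 from rfl, pow_gcd_eq_one]; exact ⟨(h5 z hz).1, h⟩
  obtain ⟨x, p1, p2, p3⟩ := exists_reg (sc_all _) h4 (hζ.isUnit_unit (by norm_num)) h3 μ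
  have : Fact (Nat.Prime 17) := ⟨by norm_num⟩
  refine ⟨π x, orderOf_eq_prime (by rw [← map_pow, p2, map_one]) fun h => p1 (h6 x h p2), fun y h => ?_⟩
  obtain ⟨y, rfl⟩ := h1 y
  have a1 : π (y * x * y⁻¹ * x⁻¹) = 1 := by simp [h]
  have a2 := (show Commute _ x from (h5 _ a1).2 x).mul_pow 17
  rw [inv_mul_cancel_right, conj_pow, p2, mul_one, mul_one, mul_inv_cancel] at a2
  rw [← map_pow, p3 y (by rw [← mul_inv_eq_iff_eq_mul, ← mul_inv_eq_one]; exact h6 _ a1 a2.symm), map_one]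

/-- subgroups of prime order are conjugate when the square of the prime does not divide the order -/
theorem conj_pow_of {G : Type*} [Group G] [Finite G] {p : ℕ} [hp : Fact p.Prime] (h : ¬ p * p ∣ Nat.card G) {x g : G}
    (hx : orderOf x = p) (hg : orderOf g = p) : ∃ (u : G) (i : ℤ), u * g ^ i * u⁻¹ = x := by
  have k : ∀ {y : G}, orderOf y = p → ∃ P : Sylow p G, (P : Subgroup G) = zpowers y := fun {y} hy => by
    have e : Nat.card (zpowers y) = p := (Nat.card_zpowers y).trans hy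
    have hn : ¬ p ∣ (zpowers y).index := fun d => h (by
      rw [← (zpowers y).card_mul_index, e]; exact mul_dvd_mul_left p d)
    exact ⟨(IsPGroup.of_card (n := 1) (e.trans (pow_one p).symm)).toSylow hn, rfl⟩
  obtain ⟨P, hP⟩ := k hx
  obtain ⟨Q, hQ⟩ := k hg
  obtain ⟨u, hu⟩ := MulAction.exists_smul_eq G Q P
  have : x ∈ ((u • Q : Sylow p G) : Subgroup G) := by rw [hu, hP]; exact mem_zpowers x
  rw [Sylow.coe_subgroup_smul, hQ] at this
  obtain ⟨_, ⟨i, rfl⟩, e⟩ := this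
  exact ⟨u, i, e⟩

end E617

/-- in `²E₆(2)` the centraliser of an element of order `17` is a `{3, 17}`-group -/
theorem e6_17 {K : Type*} [Field K] [Fintype K] (hK : Fintype.card K = 4) {g y : Lie.twistedE6 K 2}
    (hg : orderOf g = 17) (hc : Commute g y) (hy : (orderOf y).Prime) : orderOf y = 3 ∨ orderOf y = 17 := by
  have hn : Nat.card (Lie.twistedE6 K 2) = 76532479683774853939200 := by
    have := S1066.result (K := K) (q := 2) Nat.prime_two.isPrimePow hK
    norm_num at this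
    omega
  have : Finite (Lie.twistedE6 K 2) := Nat.finite_of_card_ne_zero (by rw [hn]; norm_num)
  have : Fact (Nat.Prime 17) := ⟨by norm_num⟩
  obtain ⟨x, h1, h2⟩ := E617.exists_elt hK
  obtain ⟨u, i, rfl⟩ := E617.conj_pow_of (by rw [hn]; norm_num) h1 hg
  have h3 := h2 (u * y * u⁻¹) (by
    rw [conj_mul, conj_mul, (hc.zpow_left i).eq])
  rw [conj_pow, conj_eq_one_iff, ← orderOf_dvd_iff_pow_eq_one, show 51 = 3 * 17 from rfl] at h3
  exact ((Nat.Prime.dvd_mul hy).1 h3).imp (Nat.prime_dvd_prime_iff_eq hy Nat.prime_three).1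
    (Nat.prime_dvd_prime_iff_eq hy Fact.out).1

end Cfsg.Agent.LAY
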