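import Cfsg.Agent.LAY.Defs

/-! Project LAY: extensions of a solvable group. -/

set_option autoImplicit false

namespace Cfsg.Agent.LAY

open Cfsg Subgroup H44 INVK
open scoped commutatorElement

variable {A B : Type*} [Group A] [Group B]

/-- `W 1` lifts along a surjection with solvable kernel -/
theorem W.lift (h : W 1 B) [Finite B] (f : A →* B) (hf : Function.Surjective f) (hk : Group.IsSolvable f.ker) :
    W 1 A := or_iff_not_imp_left.2 fun e => by
  have up : ∀ K, Comp ⊤ K → Comp ⊤ (K.map f) := fun K hK => by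
    have := hK.map f fun e => hK.qs.not_le_solvable hk ((Subgroup.map_eq_bot_iff _).1 e)
    rwa [map_top_of_surjective f hf] at this
  obtain ⟨K, hK⟩ := not_forall_not.1 (mt layer_eq_bot_iff.2 e)
  have h1 := h.resolve_left fun e => layer_eq_bot_iff.1 e _ (up K hK)
  have u1 : ∀ L, Comp ⊤ L → L = K.map f := fun L hL =>
    (Set.ncard_le_one (Set.toFinite _)).1 h1.2 L (comp_top_iff.1 hL) _ (comp_top_iff.1 (up K hK))
  have u2 : ∀ L, Comp ⊤ L → L = K := fun L hL => by_contra fun e => by
    have := congrArg (map f) (hL.commutator_eq_bot_of_ne hK e)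
    rw [map_commutator, u1 _ (up L hL), (up K hK).perfect, Subgroup.map_bot] at this
    exact (up K hK).qs.ne_bot this
  refine ⟨fun P hP => ?_, nc_le_one fun _ _ a b => (u2 _ a).trans (u2 _ b).symm⟩
  have h2 : P ≤ layer A ⊔ f.ker := by
    rw [← comap_map_eq, ← map_le_iff_le_comap]
    refine (h1.1 _ (by rw [← map_commutator, hP])).trans (sSup_le fun L hL => (u1 L (comp_top_iff.2 hL)).le.trans
      (map_mono (le_sSup (comp_top_iff.1 hK))))
  have h3 : P.map (QuotientGroup.mk' (layer A)) ≤ f.ker.map (QuotientGroup.mk' (layer A)) :=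
    (map_mono h2).trans (by rw [Subgroup.map_sup, (Subgroup.map_eq_bot_iff _).2 (QuotientGroup.ker_mk' _).ge, bot_sup_eq])
  have h4 : Group.IsSolvable (f.ker.map (QuotientGroup.mk' (layer A))) :=
    Group.isSolvable_of_surjective ((QuotientGroup.mk' (layer A)).subgroupMap_surjective f.ker)
  have := (Subgroup.map_eq_bot_iff _).1 (eq_bot_of_perfect_of_solvable (K := P.map (QuotientGroup.mk' (layer A)))
    (by rw [← map_commutator, hP]) (Group.isSolvable_of_isSolvable_injective (inclusion_injective h3)))
  rwa [QuotientGroup.ker_mk'] at this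

/-- the version with a normal `2`-subgroup -/
theorem W.of_quot (h : W 1 B) [Finite A] (Q : Subgroup A) [Q.Normal] (hQ : IsPGroup 2 Q) (e : A ⧸ Q ≃* B) : W 1 A := by
  have : Finite B := Finite.of_equiv _ e.toEquiv
  have := Fact.mk Nat.prime_two
  refine h.lift (e.toMonoidHom.comp (QuotientGroup.mk' _)) (e.surjective.comp (QuotientGroup.mk'_surjective _)) ?_
  rw [show (e.toMonoidHom.comp (QuotientGroup.mk' _)).ker = Q by ext x; simp]
  have := hQ.isNilpotent
  infer_instance

theorem w_simple [IsSimpleGroup A] : W 1 A := .inr ln_simple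

end Cfsg.Agent.LAY
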