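import Cfsg.Agent.LAY.Defs
import Cfsg.Agent.SGJ2.J2Syl
import Cfsg.Agent.H57.J2Cls
import Cfsg.Prelude.Def_Classification2

/-! Project LAY: the Hall–Janko group. -/

set_option autoImplicit false

namespace Cfsg.Agent.LAY

open Cfsg Subgroup

theorem lay_J2 {G : Type*} [Group G] [Finite G] (h : Spor.IsoJ2 G) : Lay 1 G := fun t ht => by
  obtain ⟨e⟩ := id h
  have hc : Nat.card G = 2 ^ 7 * 3 ^ 3 * 5 ^ 2 * 7 := by rw [Nat.card_congr e.toEquiv, H57.J2.card_J2]; rfl
  refine w_of_noPQ (fun p hp h5 h2 => ?_) fun x y c a1 a2 a3 a4 => ?_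
  · have h3 := h2.trans (card_subgroup_dvd_card _)
    rw [hc, mul_assoc, mul_assoc] at h3
    have k : ∀ r : ℕ, r.Prime → r ≠ p → ∀ i, (p ^ 2).Coprime (r ^ i) := fun r hr e i =>
      Nat.Coprime.pow 2 i ((Nat.coprime_primes hp hr).2 e.symm)
    obtain rfl : p = 5 := by
      by_contra e
      have h4 := (k 2 Nat.prime_two (by omega) 7).dvd_of_dvd_mul_left h3
      have := Nat.le_of_dvd (by omega) ((k 5 Nat.prime_five (Ne.symm e) 2).dvd_of_dvd_mul_left
        ((k 3 Nat.prime_three (by omega) 3).dvd_of_dvd_mul_left h4))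
      nlinarith
    have : Fact (Nat.Prime 5) := ⟨hp⟩
    obtain ⟨R, hR⟩ := Sylow.exists_subgroup_card_pow_prime 5 h2
    obtain ⟨P, hP⟩ := ((IsPGroup.of_card hR).map (centralizer {t}).subtype).exists_le_sylow
    obtain ⟨b1, b2, -⟩ := H88.JJ.j2_sylow5 h P
    have b3 := eq_of_le_of_card_ge hP (by rw [b2, card_map_of_injective (subtype_injective _), hR]; omega)
    have b4 : t ∈ (P : Subgroup G) := b1.le fun y hy => by
      obtain ⟨z, -, rfl⟩ := b3.ge hy
      exact mem_centralizer_singleton_iff.1 z.2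
    have := orderOf_dvd_natCard _ b4
    rw [ht, b2] at this
    omega
  · have b1 := c.orderOf_mul_eq_mul_orderOf_of_coprime ((Nat.coprime_primes a1 a2).2 a4.ne)
    have b2 : orderOf (x * y) ∈ Set.range (orderOf : Spor.J2 → ℕ) :=
      ⟨e (x * y).1, by rw [MulEquiv.orderOf_eq, orderOf_coe]⟩
    rw [H57.J2.range_orderOf_J2, b1] at b2
    have b3 : 5 * 6 ≤ orderOf x * orderOf y := Nat.mul_le_mul a3 (by omega)
    have b4 : ∀ o ∈ [1, 2, 3, 4, 5, 6, 7, 8, 10, 12, 15], o ≤ 15 := by decide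
    exact absurd (b4 _ b2) (by omega)

end Cfsg.Agent.LAY
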