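import Cfsg.Agent.LAY.Defs
import Cfsg.Prelude.Def_Classification2
import Cfsg.Agent.H14.M24

set_option autoImplicit false

namespace Cfsg.Agent.LAY

open Cfsg Subgroup MulAction

theorem m24_fix {x : M24} (hp : (orderOf x).Prime) (h5 : 5 ≤ orderOf x) :
    (Finset.univ.filter fun a : GolayPt => x • a = a).card ≤ 4 := by
  by_contra! h
  obtain ⟨s, hs, h4⟩ := Finset.exists_subset_card_eq (show 5 ≤ _ from h)
  have c4 := H14.m24_five_transitive.index_of_fixingSubgroup_mul (s := (s : Set GolayPt))
    (by rw [Set.ncard_coe_finset, h4])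
  have c5 := (fixingSubgroup M24 (s : Set GolayPt)).card_mul_index
  rw [Nat.card_eq_fintype_card, show Fintype.card GolayPt = 24 from rfl] at c4
  rw [H14.card_M24, show (fixingSubgroup M24 (s : Set GolayPt)).index = 5100480 from
    Nat.eq_of_mul_eq_mul_right (Nat.factorial_pos _) (c4.trans (by decide))] at c5
  have c6 := (fixingSubgroup M24 (s : Set GolayPt)).orderOf_dvd_natCard
    ((mem_fixingSubgroup_iff _).2 fun a ha => (Finset.mem_filter.1 (hs ha)).2)
  rw [show Nat.card (fixingSubgroup M24 (s : Set GolayPt)) = 2 ^ 4 * 3 by omega] at c6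
  rcases (hp.dvd_mul).1 c6 with e | e
  · have := Nat.le_of_dvd two_pos (hp.dvd_of_dvd_pow e); omega
  · have := Nat.le_of_dvd three_pos e; omega

theorem fix_of_pow {M X : Type*} [Group M] [Finite M] [MulAction M X] {y : M} {a : X} {p : ℕ}
    (h : p.Coprime (orderOf y)) (e : y ^ p • a = a) : y • a = a := by
  obtain ⟨k, hk⟩ := exists_pow_eq_self_of_coprime h
  exact hk ▸ pow_mem (mem_stabilizer_iff.2 e) k

theorem m24_noPQ {x y : M24} (c : Commute x y) (hp : (orderOf x).Prime) (hq : (orderOf y).Prime)
    (h5 : 5 ≤ orderOf x) (h : orderOf x < orderOf y) : False := by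
  have co := (Nat.coprime_primes hp hq).2 h.ne
  have key : ∀ a : GolayPt, x • a = a ∨ y • a = a := fun a => by
    have h1 := period_dvd_orderOf (x * y) a
    have h2 : period (x * y) a ≤ 24 := by
      rw [period_eq_minimalPeriod]
      exact Function.minimalPeriod_le_card
    rw [c.orderOf_mul_eq_mul_orderOf_of_coprime co] at h1
    by_cases h3 : orderOf x ∣ period (x * y) a
    · by_cases h4 : orderOf y ∣ period (x * y) a
      · have := Nat.le_of_dvd (period_pos_of_orderOf_pos (orderOf_pos _) a) (co.mul_dvd_of_dvd_of_dvd h3 h4)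
        nlinarith
      · have := pow_smul_eq_iff_period_dvd.2
          (((Nat.Prime.coprime_iff_not_dvd hq).2 h4).symm.dvd_of_dvd_mul_right h1)
        rw [c.mul_pow, pow_orderOf_eq_one, one_mul] at this
        exact .inr (fix_of_pow co this)
    · have := pow_smul_eq_iff_period_dvd.2 (((Nat.Prime.coprime_iff_not_dvd hp).2 h3).symm.dvd_of_dvd_mul_left h1)
      rw [c.mul_pow, pow_orderOf_eq_one, mul_one] at this
      exact .inl (fix_of_pow co.symm this)
  have h1 := Finset.card_le_card (s := Finset.univ) (t := (Finset.univ.filter fun a : GolayPt => x • a = a) ∪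
    Finset.univ.filter fun a : GolayPt => y • a = a) fun a _ => by simpa using key a
  have h2 := Finset.card_union_le (Finset.univ.filter fun a : GolayPt => x • a = a)
    (Finset.univ.filter fun a : GolayPt => y • a = a)
  have h3 := m24_fix hp h5
  have h4 := m24_fix hq (by omega)
  rw [Finset.card_univ, show Fintype.card GolayPt = 24 from rfl] at h1
  omega

theorem w_m24 {H : Type*} [Group H] [Finite H] (f : H →* M24) (hf : Function.Injective f) : W 1 H := by
  refine w_of_noPQ (fun p hp h5 e => ?_) fun x y c a1 a2 a3 a4 => ?_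
  · have h1 := e.trans (card_dvd_of_injective f hf)
    rw [H14.card_M24, show 244823040 = 2 ^ 10 * 3 ^ 3 * (5 * 7 * 11 * 23) by norm_num] at h1
    have h2 := ((Nat.Coprime.mul_left (((Nat.coprime_primes Nat.prime_two hp).2 (by omega)).pow_left 10)
      (((Nat.coprime_primes Nat.prime_three hp).2 (by omega)).pow_left 3)).pow_right 2).symm.dvd_of_dvd_mul_left h1
    exact hp.prime.not_unit ((by decide +kernel : Squarefree (5 * 7 * 11 * 23)) p (by rwa [← pow_two]))
  · rw [← orderOf_injective f hf] at a1 a2 a3 a4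
    rw [← orderOf_injective f hf y] at a4
    exact m24_noPQ (c.map f) a1 a2 a3 a4

theorem lay_le {G : Type*} [Group G] [Finite G] {M : Subgroup (Equiv.Perm GolayPt)} (hM : M ≤ M24)
    (h : Nonempty (G ≃* M)) : Lay 1 G := fun _ _ =>
  w_m24 ((inclusion hM).comp (h.some.toMonoidHom.comp (Subgroup.subtype _)))
    ((inclusion_injective hM).comp (h.some.injective.comp (subtype_injective _)))

theorem lay_M11 {G : Type*} [Group G] [Finite G] (h : Spor.IsoM11 G) : Lay 1 G :=
  lay_le (inf_le_left.trans inf_le_left) h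

theorem lay_M12 {G : Type*} [Group G] [Finite G] (h : Spor.IsoM12 G) : Lay 1 G :=
  lay_le inf_le_left h

theorem lay_M22 {G : Type*} [Group G] [Finite G] (h : Spor.IsoM22 G) : Lay 1 G :=
  lay_le (inf_le_left.trans inf_le_left) h

theorem lay_M23 {G : Type*} [Group G] [Finite G] (h : Spor.IsoM23 G) : Lay 1 G :=
  lay_le inf_le_left h

theorem lay_M24 {G : Type*} [Group G] [Finite G] (h : Spor.IsoM24 G) : Lay 1 G :=
  lay_le le_rfl h

end Cfsg.Agent.LAY
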