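import Cfsg.Agent.LAY.Defs
import Cfsg.Prelude.Def_Classification2
import Cfsg.Agent.H57.RuS1

/-! Project LAY: the Rudvalis group (permutation model on `4060` points). -/

set_option autoImplicit false
set_option maxRecDepth 100000

namespace Cfsg.Agent.LAY

open Cfsg Subgroup

namespace Ru33

open Cfsg.Agent.H14 Cfsg.Agent.H55 Cfsg.Agent.H57Ru MulAction

theorem fix_of_small {G Ω : Type*} [Group G] [Finite G] [MulAction G Ω] {z : G} (hz : (orderOf z).Prime)
    {S : Finset Ω} (hS : ∀ x ∈ S, z • x ∈ S) (hc : S.card < orderOf z) {x : Ω} (hx : x ∈ S) : z • x = x := by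
  have h1 : orbit (zpowers z) x ⊆ S := by
    rintro _ ⟨⟨_, hg⟩, rfl⟩
    obtain ⟨n, rfl⟩ := (mem_powers_iff_mem_zpowers.2 hg)
    change z ^ n • x ∈ S
    induction n with
    | zero => simpa using hx
    | succ n ih => rw [pow_succ', mul_smul]; exact hS _ (ih (pow_mem (mem_zpowers z) n))
  have h2 : (orbit (zpowers z) x).ncard ∣ orderOf z := by
    rw [← index_stabilizer, ← Nat.card_zpowers]; exact index_dvd_card _
  have h3 := Set.ncard_le_ncard h1 S.finite_toSet
  rw [Set.ncard_coe_finset] at h3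
  obtain ⟨a, ha⟩ := Set.ncard_eq_one.1 (((Nat.dvd_prime hz).1 h2).resolve_right (by omega))
  exact (ha.le ⟨⟨z, mem_zpowers z⟩, rfl⟩).trans (ha.le (mem_orbit_self x)).symm

instance : Finite PR := Nat.finite_of_card_ne_zero (by rw [card_PR]; decide)

theorem cen13 {g z : PR} (hg : orderOf g = 13) (c : Commute g z) (hz : (orderOf z).Prime) (h5 : 5 ≤ orderOf z) :
    orderOf z = 13 := by
  have := Fact.mk (show Nat.Prime 13 by decide)
  obtain ⟨y, -, hy, -⟩ := vTy
  have ho : orderOf y = 13 := orderOf_eq_prime (baseP.eq (hy.iter 13) AM.Fn.one cyw.2.2.1) fun h =>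
    cyw.2.2.2.2.1 (hy.eq (h ▸ AM.Fn.one) (by decide))
  obtain ⟨s, k, k5, k0, e⟩ := exists_conj_pow (r := 13) (by decide) (by rw [card_PR]; decide) ho hg
  have c1 : Commute (y ^ k) (s * z * s⁻¹) := e ▸ Commute.conj c s
  have c2 : Commute y (s * z * s⁻¹) := by
    have := c1.pow_left (k ^ 11)
    rwa [← pow_mul, ← pow_mod_orderOf, ho, show k * k ^ 11 % 13 = 1 by interval_cases k <;> simp_all,
      pow_one] at this
  have e1 : orderOf (s * z * s⁻¹) = orderOf z := (MulAut.conj s).orderOf_eq z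
  rw [← e1] at hz h5 ⊢
  generalize s * z * s⁻¹ = w at *
  have hS : ∀ x ∈ ({0, 1, 868, 3245} : Finset (Fin 4060)), w • x ∈ ({0, 1, 868, 3245} : Finset (Fin 4060)) :=
    fun x hx => by
      have h1 := all2_iff.1 cFy _ (w • x : Fin 4060).2
      simp only [force_eq, bimp_iff, beq_iff, anyL_iff, List.mem_cons, List.not_mem_nil, or_false, exists_eq_or_imp,
        exists_eq_left] at h1
      simp only [Finset.mem_insert, Finset.mem_singleton] at hx ⊢
      have h2 : y • x = x := fn_fix hy cyw.1 x (by rcases hx with rfl | rfl | rfl | rfl <;> decide)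
      exact (h1 (by rw [← fn_val hy, ← mul_smul, c2.eq, mul_smul, h2])).imp Fin.ext
        (Or.imp Fin.ext (Or.imp Fin.ext Fin.ext))
  have f := fun x hx => fix_of_small hz hS (x := x)
    ((show ({0, 1, 868, 3245} : Finset (Fin 4060)).card = 4 by decide +kernel).trans_lt (by omega)) hx
  have h1 : w ∈ HH ⊓ stabilizer PR (1 : Fin 4060) ⊓ stabilizer PR (868 : Fin 4060) :=
    ⟨⟨f 0 (by decide +kernel), f 1 (by decide +kernel)⟩, f 868 (by decide +kernel)⟩
  have h2 := orderOf_dvd_natCard _ h1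
  rw [card_M0] at h2
  have h3 := Nat.le_of_dvd (by decide) h2
  generalize orderOf w = n at *
  interval_cases n <;> first | rfl | (exfalso; revert hz h2; decide)

theorem primes {p : ℕ} (hp : p.Prime) (h5 : 5 ≤ p) (h : p ∣ 145926144000) : p = 5 ∨ p = 7 ∨ p = 13 ∨ p = 29 := by
  rw [show 145926144000 = 2 ^ 14 * (3 ^ 3 * (5 ^ 3 * (7 * (13 * 29)))) by norm_num] at h
  have k : ∀ {q n : ℕ}, q.Prime → p ∣ q ^ n → p = q := fun hq h =>
    (Nat.prime_dvd_prime_iff_eq hp hq).1 (hp.dvd_of_dvd_pow h)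
  rcases (Nat.Prime.dvd_mul hp).1 h with h | h
  · have := k Nat.prime_two h; omega
  rcases (Nat.Prime.dvd_mul hp).1 h with h | h
  · have := k Nat.prime_three h; omega
  rcases (Nat.Prime.dvd_mul hp).1 h with h | h
  · exact .inl (k Nat.prime_five h)
  rcases (Nat.Prime.dvd_mul hp).1 h with h | h
  · exact .inr (.inl (k (n := 1) (by decide) h))
  rcases (Nat.Prime.dvd_mul hp).1 h with h | h
  · exact .inr (.inr (.inl (k (n := 1) (by decide) h)))
  · exact .inr (.inr (.inr (k (n := 1) (by decide) h)))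

theorem cU33 : cmt (run lkR tS 0x1060f8ba0e885c183e2e83a217060f8) (lkR Tb) = true ∧
    agree bs (iterF (iterF (run lkR tS 0x1060f8ba0e885c183e2e83a217060f8) 2) 13) (fun i => i) = true ∧
    iterF (run lkR tS 0x1060f8ba0e885c183e2e83a217060f8) 2 0 ≠ 0 := by
  decide +kernel

theorem w_eb : W 1 (centralizer {eb} : Subgroup PR) := by
  have := Fact.mk (show Nat.Prime 13 by decide)
  obtain ⟨u, -, hu, -⟩ := validS.wf 0x1060f8ba0e885c183e2e83a217060f8
  rw [← run_eq] at hu
  have h1 : u ∈ centralizer {eb} := mem_centralizer_singleton_iff.2 (cmt_sound hu fn_eb cU33.1)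
  have ho : orderOf (u ^ 2) = 13 := orderOf_eq_prime (baseP.eq ((hu.iter 2).iter 13) AM.Fn.one cU33.2.1) fun h =>
    cU33.2.2 ((hu.iter 2).eq (h ▸ AM.Fn.one) (by decide))
  refine w_of_big' (g := ⟨u ^ 2, pow_mem h1 2⟩) (p := 13) (N := 145926144000) (by decide) ((orderOf_coe _).symm.trans ho)
    (card_PR ▸ card_subgroup_dvd_card _) (by decide) (fun y c a b => ?_) fun r i hr h5 h13 i0 hd => ?_
  · rw [← orderOf_coe] at a b ⊢
    exact cen13 ho (congrArg Subtype.val c) a b
  · have k : ∀ j, ¬ r ^ j ∣ 145926144000 → i < j := fun j h => not_le.1 fun e => h ((pow_dvd_pow r e).trans hd)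
    rcases primes hr h5 ((dvd_pow_self r i0).trans hd) with rfl | rfl | rfl | rfl
    · have := k 4 (by decide); interval_cases i <;> simp_all
    · have := k 2 (by decide); interval_cases i <;> simp_all
    · exact absurd rfl h13
    · have := k 2 (by decide); interval_cases i <;> simp_all

theorem cnt : Nat.count (fun i => lkR Ta i = i) 4060 = 92 := by decide +kernel

theorem card_fix : Fintype.card {x : Fin 4060 // ea • x = x} = 92 := by
  rw [← cnt, Nat.count_eq_card_fintype]
  exact @Fintype.card_congr _ _ _ (_)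
    ⟨fun x => ⟨x.1.1, x.1.2, by rw [← fn_val fn_ea, x.2]⟩, fun x => ⟨⟨x.1, x.2.1⟩, Fin.ext (by
      rw [fn_val fn_ea]; exact x.2.2)⟩, fun _ => rfl, fun _ => rfl⟩

theorem dvd_of_cen {y : PR} (c : Commute ea y) (hp : (orderOf y).Prime) (h : ¬ orderOf y ∣ 92) :
    orderOf y ∣ 35942400 := by
  have := Fact.mk hp
  have k : ∀ x : Fin 4060, ea • toPerm y x = toPerm y x ↔ ea • x = x := fun x => by
    rw [toPerm_apply, ← mul_smul, c.eq, mul_smul, smul_left_cancel_iff]
  obtain ⟨⟨x, hx⟩, e⟩ := Equiv.Perm.exists_fixed_point_of_prime (p := orderOf y) (n := 1) (by rwa [card_fix])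
    (σ := (toPerm y).subtypePerm k) (by
      rw [pow_one, Equiv.Perm.subtypePerm_pow]
      ext x
      change (((toPermHom PR (Fin 4060) y ^ orderOf y) x.1 : Fin 4060) : ℕ) = x.1
      rw [← map_pow, pow_orderOf_eq_one, map_one]; rfl)
  have e1 : y • x = x := congrArg Subtype.val e
  obtain ⟨g, rfl⟩ := transP x
  have e2 : g⁻¹ * y * g⁻¹⁻¹ ∈ HH := by
    rw [mem_stabilizer_iff, inv_inv, mul_smul, mul_smul, e1, inv_smul_smul]
  rw [← card_HH, ← (MulAut.conj g⁻¹).orderOf_eq y]
  exact orderOf_dvd_natCard _ e2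

theorem w_ea : W 1 (centralizer {ea} : Subgroup PR) := by
  have hd : Nat.card (centralizer {ea} : Subgroup PR) ∣ 145926144000 := card_PR ▸ card_subgroup_dvd_card _
  refine w_of_noPQ (fun p hp h5 h => ?_) fun x y c a1 a2 a3 a4 => ?_
  · rcases primes hp h5 ((dvd_pow_self p two_ne_zero).trans (h.trans hd)) with rfl | rfl | rfl | rfl
    · exact not_dvd_cen h
    all_goals exact absurd (h.trans hd) (by decide)
  · have h1 := primes a2 (by omega) ((orderOf_dvd_natCard y).trans hd)
    rw [← orderOf_coe x] at a1 a3 a4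
    rw [← orderOf_coe y] at a2 a4 h1
    have h2 := dvd_of_cen (INVK.mem_cent.1 y.2) a2
    rcases h1 with h | h | h | h
    · omega
    · rw [h] at h2; exact absurd (h2 (by decide)) (by decide)
    · have := cen13 h (congrArg Subtype.val c.symm) a1 a3; omega
    · rw [h] at h2; exact absurd (h2 (by decide)) (by decide)

theorem lay_PR : Lay 1 PR := lay_of_classes {ea, eb} (fun t ht => by
    rcases inv_classes (y := t) (by rw [← sq, ← ht, pow_orderOf_eq_one]) with h | h | h
    · rw [h, orderOf_one] at ht; omega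
    exacts [⟨ea, .inl rfl, h⟩, ⟨eb, .inr rfl, h⟩]) (by
  rintro _ (rfl | rfl)
  exacts [w_ea, w_eb])

end Ru33

theorem lay_Ru {G : Type*} [Group G] [Finite G] (h : Spor.IsoRu G) : Lay 1 G := by
  obtain ⟨e⟩ := h
  exact Ru33.lay_PR.congr (e.trans H57Ru.equivRu)

end Cfsg.Agent.LAY
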